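import Mathlib

set_option autoImplicit false

namespace Cfsg.Agent.Lib.Helper21

variable {G : Type*} [Group G]

/-- A homomorphism from a perfect group to a commutative group is trivial. -/
lemma perfect_hom_comm_eq_one {A : Type*} [Group A] (hA : ∀ a b : A, a * b = b * a)
    (hG : Group.IsPerfect G) (f : G →* A) (g : G) :
    f g = 1 := by
  have h1 : commutator G ≤ f.ker := by
    rw [commutator_def, Subgroup.commutator_le]
    intro a _ b _
    rw [MonoidHom.mem_ker, commutatorElement_def, map_mul, map_mul, map_mul, map_inv, map_inv,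
      hA (f a) (f b)]
    group
  have h2 : g ∈ commutator G := by rw [hG.commutator_eq_top]; exact Subgroup.mem_top g
  exact MonoidHom.mem_ker.1 (h1 h2)

/-- In a perfect group, an element all of whose commutators are central is central. -/
lemma perfect_mem_center_of_commutators (hG : Group.IsPerfect G) (z : G)
    (h : ∀ g : G, z * g * z⁻¹ * g⁻¹ ∈ Subgroup.center G) : z ∈ Subgroup.center G := by
  let f : G →* Subgroup.center G :=
    { toFun := fun g => ⟨z * g * z⁻¹ * g⁻¹, h g⟩
      map_one' := by ext; simp
      map_mul' := by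
        intro a b
        ext
        have hb := Subgroup.mem_center_iff.1 (h b) (a⁻¹)
        simp only [Subgroup.coe_mul]
        calc z * (a * b) * z⁻¹ * (a * b)⁻¹ = z * a * z⁻¹ * ((z * b * z⁻¹ * b⁻¹) * a⁻¹) := by group
          _ = z * a * z⁻¹ * (a⁻¹ * (z * b * z⁻¹ * b⁻¹)) := by rw [hb]
          _ = _ := by group }
  rw [Subgroup.mem_center_iff]
  intro g
  have h1 := perfect_hom_comm_eq_one
    (fun a b => Subtype.ext (Subgroup.mem_center_iff.1 b.2 a)) hG f g
  have h2 : z * g * z⁻¹ * g⁻¹ = 1 := congrArg Subtype.val h1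
  calc g * z = (z * g * z⁻¹ * g⁻¹)⁻¹ * (z * g) := by group
    _ = z * g := by rw [h2]; simp

end Cfsg.Agent.Lib.Helper21
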