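import Mathlib
import Cfsg.Prelude.Def_FischerSpaces

set_option autoImplicit false

namespace Cfsg.Agent.Lib.Helper21.FischerModel

open Cfsg

/-- `p'` is the image of `p` under the line map of `x` -/
def Tr {Y : Type*} (M : Set (Set Y)) (x p p' : Y) : Prop :=
  (({x, p, p'} : Set Y) ∈ M ∧ p' ≠ x ∧ p' ≠ p) ∨
    (p' = p ∧ ∀ q, q ≠ x → q ≠ p → ({x, p, q} : Set Y) ∉ M)

def Good {Y : Type*} (M : Set (Set Y)) : Prop :=
  ∀ x y z a b : Y, ({x, y, z} : Set Y) ∈ M → ({y, a, b} : Set Y) ∈ M →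
    x ≠ y → x ≠ z → y ≠ z → y ≠ a → y ≠ b → a ≠ b → x ≠ a → x ≠ b →
    ∃ a' b', ({z, a', b'} : Set Y) ∈ M ∧ Tr M x a a' ∧ Tr M x b b'

section dual

set_option maxRecDepth 100000 in
lemma dual_fwd : ∀ i : Fin 4, ∀ x : Finset (Fin 4), x.card = 2 → i ∉ x →
    ∀ y : Finset (Fin 4), y.card = 2 → i ∉ y → x ≠ y →
    ∀ z : Finset (Fin 4), z.card = 2 → i ∉ z → x ≠ z → y ≠ z → z = symmDiff x y := by
  decide

set_option maxRecDepth 100000 in
lemma dual_bwd : ∀ x : Finset (Fin 4), x.card = 2 → ∀ y : Finset (Fin 4), y.card = 2 →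
    (symmDiff x y).card = 2 → ∃ i : Fin 4, ∀ s : Finset (Fin 4), s.card = 2 →
      ((s = x ∨ s = y ∨ s = symmDiff x y) ↔ i ∉ s) := by
  decide

set_option maxRecDepth 100000 in
lemma dual_key : ∀ x : Finset (Fin 4), x.card = 2 → ∀ y : Finset (Fin 4), y.card = 2 →
    (symmDiff x y).card = 2 → ∀ a : Finset (Fin 4), a.card = 2 → (symmDiff y a).card = 2 →
    x ≠ a → x ≠ symmDiff y a →
    symmDiff (symmDiff x y) (if (symmDiff x a).card = 2 then symmDiff x a else a) =
      (if (symmDiff x (symmDiff y a)).card = 2 then symmDiff x (symmDiff y a)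
        else symmDiff y a) := by
  decide

lemma dual_of_mem (x y z : DualAffinePoint) (h : ({x, y, z} : Set DualAffinePoint) ∈ dualAffinePlaneTwo)
    (hxy : x ≠ y) (hxz : x ≠ z) (hyz : y ≠ z) : z.val = symmDiff x.val y.val := by
  obtain ⟨i, hi⟩ := h
  have hx : x ∈ ({x, y, z} : Set DualAffinePoint) := by simp
  have hy : y ∈ ({x, y, z} : Set DualAffinePoint) := by simp
  have hz : z ∈ ({x, y, z} : Set DualAffinePoint) := by simp
  rw [hi] at hx hy hz
  exact dual_fwd i x.val x.2 hx y.val y.2 hy (fun h => hxy (Subtype.ext h)) z.val z.2 hz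
    (fun h => hxz (Subtype.ext h)) (fun h => hyz (Subtype.ext h))

lemma dual_mem (x y z : DualAffinePoint) (h : z.val = symmDiff x.val y.val) :
    ({x, y, z} : Set DualAffinePoint) ∈ dualAffinePlaneTwo := by
  obtain ⟨i, hi⟩ := dual_bwd x.val x.2 y.val y.2 (by rw [← h]; exact z.2)
  refine ⟨i, ?_⟩
  ext s
  simp only [Set.mem_insert_iff, Set.mem_singleton_iff, Set.mem_setOf_eq]
  rw [← hi s.val s.2, ← h]
  simp only [Subtype.ext_iff]

/-- the line map in the dual affine plane -/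
def tt (x p : DualAffinePoint) : DualAffinePoint :=
  if h : (symmDiff x.val p.val).card = 2 then ⟨symmDiff x.val p.val, h⟩ else p

lemma tt_val (x p : DualAffinePoint) : (tt x p).val =
    if (symmDiff x.val p.val).card = 2 then symmDiff x.val p.val else p.val := by
  unfold tt
  split_ifs <;> rfl

set_option maxRecDepth 100000 in
lemma dual_ne : ∀ x : Finset (Fin 4), x.card = 2 → ∀ y : Finset (Fin 4), y.card = 2 →
    symmDiff x y ≠ x ∧ symmDiff x y ≠ y := by
  decide

lemma Tr_tt (x p : DualAffinePoint) (hxp : x ≠ p) : Tr dualAffinePlaneTwo x p (tt x p) := by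
  by_cases h : (symmDiff x.val p.val).card = 2
  · left
    have hv : (tt x p).val = symmDiff x.val p.val := by rw [tt_val, if_pos h]
    refine ⟨dual_mem x p _ hv, ?_, ?_⟩
    · intro e
      exact (dual_ne x.val x.2 p.val p.2).1 (by rw [← hv, e])
    · intro e
      exact (dual_ne x.val x.2 p.val p.2).2 (by rw [← hv, e])
  · right
    refine ⟨?_, ?_⟩
    · apply Subtype.ext
      rw [tt_val, if_neg h]
    · intro q hqx hqp hm
      apply h
      rw [← dual_of_mem x p q hm hxp hqx.symm hqp.symm]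
      exact q.2

theorem good_dual : Good dualAffinePlaneTwo := by
  intro x y z a b h1 h2 hxy hxz hyz hya hyb hab hxa hxb
  have hz := dual_of_mem x y z h1 hxy hxz hyz
  have hb := dual_of_mem y a b h2 hya hyb hab
  refine ⟨tt x a, tt x b, ?_, Tr_tt x a hxa, Tr_tt x b hxb⟩
  apply dual_mem
  rw [tt_val, tt_val, hz, hb]
  exact (dual_key x.val x.2 y.val y.2 (by rw [← hz]; exact z.2) a.val a.2 (by rw [← hb]; exact b.2)
    (fun h => hxa (Subtype.ext h)) (fun h => hxb (Subtype.ext (by rw [h, hb])))).symm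

end dual

section affine

abbrev V3 := Fin 2 → ZMod 3

lemma z3a : ∀ u v : ZMod 3, -u - v = u + 2 * (v - u) := by decide

lemma aff_mem (p q : V3) (h : p ≠ q) : ({p, q, -p - q} : Set V3) ∈ affinePlaneThree := by
  refine ⟨p, q - p, sub_ne_zero.mpr h.symm, ?_⟩
  ext t
  simp only [Set.mem_insert_iff, Set.mem_singleton_iff, Set.mem_setOf_eq]
  constructor
  · rintro (rfl | rfl | rfl)
    · exact ⟨0, by simp⟩
    · exact ⟨1, by simp⟩
    · refine ⟨2, ?_⟩
      funext i
      simp only [Pi.add_apply, Pi.sub_apply, Pi.neg_apply, Pi.smul_apply, smul_eq_mul]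
      exact z3a _ _
  · rintro ⟨c, rfl⟩
    have hc : c = 0 ∨ c = 1 ∨ c = 2 := by revert c; decide
    rcases hc with rfl | rfl | rfl
    · left; simp
    · right; left; simp
    · right; right
      funext i
      simp only [Pi.add_apply, Pi.sub_apply, Pi.neg_apply, Pi.smul_apply, smul_eq_mul]
      exact (z3a _ _).symm

lemma z3b : ∀ c1 c2 c3 v w : ZMod 3, c1 ≠ c2 → c1 ≠ c3 → c2 ≠ c3 →
    v + c3 * w = -(v + c1 * w) - (v + c2 * w) := by decide

lemma aff_of_mem (x y z : V3) (h : ({x, y, z} : Set V3) ∈ affinePlaneThree)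
    (hxy : x ≠ y) (hxz : x ≠ z) (hyz : y ≠ z) : z = -x - y := by
  obtain ⟨v, w, hw, hl⟩ := h
  have hx : x ∈ ({x, y, z} : Set V3) := by simp
  have hy : y ∈ ({x, y, z} : Set V3) := by simp
  have hz : z ∈ ({x, y, z} : Set V3) := by simp
  rw [hl] at hx hy hz
  obtain ⟨c1, rfl⟩ := hx
  obtain ⟨c2, rfl⟩ := hy
  obtain ⟨c3, rfl⟩ := hz
  funext i
  simp only [Pi.add_apply, Pi.sub_apply, Pi.neg_apply, Pi.smul_apply, smul_eq_mul]
  exact z3b c1 c2 c3 _ _ (fun e => hxy (by rw [e])) (fun e => hxz (by rw [e]))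
    (fun e => hyz (by rw [e]))

lemma z3c : ∀ u v : ZMod 3, -u - v = u → u = v := by decide
lemma z3d : ∀ u v : ZMod 3, -u - v = v → u = v := by decide
lemma z3e : ∀ x y a : ZMod 3, -(-x - y) - (-x - a) = -x - (-y - a) := by decide

lemma Tr_aff (x p : V3) (hxp : x ≠ p) : Tr affinePlaneThree x p (-x - p) := by
  left
  refine ⟨aff_mem x p hxp, ?_, ?_⟩
  · intro e
    apply hxp
    funext i
    exact z3c _ _ (congrFun e i)
  · intro e
    apply hxp
    funext i
    exact z3d _ _ (congrFun e i)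

theorem good_aff : Good affinePlaneThree := by
  intro x y z a b h1 h2 hxy hxz hyz hya hyb hab hxa hxb
  have hz := aff_of_mem x y z h1 hxy hxz hyz
  have hb := aff_of_mem y a b h2 hya hyb hab
  refine ⟨-x - a, -x - b, ?_, Tr_aff x a hxa, Tr_aff x b hxb⟩
  have hne : z ≠ -x - a := by
    rw [hz]
    intro e
    exact hya (sub_right_injective e)
  have h3 := aff_mem z (-x - a) hne
  have h4 : -z - (-x - a) = -x - b := by
    rw [hz, hb]
    funext i
    exact z3e _ _ _
  rwa [h4] at h3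

end affine

end Cfsg.Agent.Lib.Helper21.FischerModel
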