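import Mathlib
import Cfsg.Agent.Lib.Helper21.Central

set_option autoImplicit false

namespace Cfsg.Agent.Lib.Helper21

universe u v w

section general
variable {X : Type u} {Q : Type v} [Group X] [Group Q]

/-- commutators only depend on the classes modulo a central subgroup -/
lemma comm_eq_of_central {g g' h h' : X} (hg : g⁻¹ * g' ∈ Subgroup.center X)
    (hh : h⁻¹ * h' ∈ Subgroup.center X) :
    g' * h' * g'⁻¹ * h'⁻¹ = g * h * g⁻¹ * h⁻¹ := by
  obtain ⟨k, hk, rfl⟩ : ∃ k ∈ Subgroup.center X, g' = g * k := ⟨_, hg, by group⟩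
  obtain ⟨l, hl, rfl⟩ : ∃ l ∈ Subgroup.center X, h' = h * l := ⟨_, hh, by group⟩
  rw [Subgroup.mem_center_iff] at hk hl
  have e1 : g * k * (h * l) = g * h * (k * l) := by
    rw [mul_assoc g k, ← mul_assoc k h, ← hk h]; group
  have e2 : (g * k)⁻¹ = k⁻¹ * g⁻¹ := by group
  have e3 : (h * l)⁻¹ = l⁻¹ * h⁻¹ := by group
  rw [e1, e2, e3]
  have e4 : l * g⁻¹ = g⁻¹ * l := (hl g⁻¹).symm
  calc g * h * (k * l) * (k⁻¹ * g⁻¹) * (l⁻¹ * h⁻¹)
      = g * h * (k * (l * k⁻¹)) * g⁻¹ * (l⁻¹ * h⁻¹) := by group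
    _ = g * h * (k * (k⁻¹ * l)) * g⁻¹ * (l⁻¹ * h⁻¹) := by rw [(hl k⁻¹)]
    _ = g * h * (l * g⁻¹) * (l⁻¹ * h⁻¹) := by group
    _ = g * h * (g⁻¹ * l) * (l⁻¹ * h⁻¹) := by rw [e4]
    _ = _ := by group

lemma finite_commutator_of_central [Finite Q] (ξ : X →* Q) (hc : ξ.ker ≤ Subgroup.center X) :
    Finite (commutator X) := by
  classical
  let s : Q → X := fun q => if h : ∃ x, ξ x = q then h.choose else 1
  have hs : ∀ x, ξ (s (ξ x)) = ξ x := by
    intro x
    have h : ∃ y, ξ y = ξ x := ⟨x, rfl⟩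
    simp only [s, dif_pos h]
    exact h.choose_spec
  have hsub : commutatorSet X ⊆ Set.range (fun p : Q × Q => s p.1 * s p.2 * (s p.1)⁻¹ * (s p.2)⁻¹) := by
    rintro _ ⟨g, h, rfl⟩
    refine ⟨(ξ g, ξ h), ?_⟩
    rw [commutatorElement_def]
    apply comm_eq_of_central
    · apply hc; rw [MonoidHom.mem_ker, map_mul, map_inv, hs]; simp
    · apply hc; rw [MonoidHom.mem_ker, map_mul, map_inv, hs]; simp
  have : Finite (commutatorSet X) := (Set.finite_range _).subset hsub
  infer_instance

/-- If `ξ : X → Q` is a central extension of a perfect group then `X'` maps onto `Q`. -/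
lemma commutator_map_surjective_of_perfect (hQ : Group.IsPerfect Q) (ξ : X →* Q)
    (hs : Function.Surjective ξ) : Function.Surjective (ξ.comp (commutator X).subtype) := by
  intro q
  have h1 : (commutator X).map ξ = ⊤ := by
    rw [commutator_def, Subgroup.map_commutator, ← MonoidHom.range_eq_map,
      MonoidHom.range_eq_top_of_surjective ξ hs, ← commutator_def, hQ.commutator_eq_top]
  have h2 : q ∈ (commutator X).map ξ := h1 ▸ Subgroup.mem_top q
  obtain ⟨x, hx, rfl⟩ := h2
  exact ⟨⟨x, hx⟩, rfl⟩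

/-- a subgroup `H` with `H * center = X` contains the commutator subgroup, and `X' = H'`. -/
lemma commutator_le_commutator_of_central_supplement (H : Subgroup X)
    (hH : ∀ x : X, ∃ h ∈ H, h⁻¹ * x ∈ Subgroup.center X) : commutator X ≤ ⁅H, H⁆ := by
  rw [commutator_def, Subgroup.commutator_le]
  intro g _ h _
  obtain ⟨g', hg', hgc⟩ := hH g
  obtain ⟨h', hh', hhc⟩ := hH h
  rw [commutatorElement_def, comm_eq_of_central hgc hhc]
  exact Subgroup.commutator_mem_commutator hg' hh'

lemma commutator_isPerfect_of_central_perfect (hQ : Group.IsPerfect Q) (ξ : X →* Q)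
    (hs : Function.Surjective ξ) (hc : ξ.ker ≤ Subgroup.center X) :
    Group.IsPerfect (commutator X) := by
  rw [Subgroup.isPerfect_iff]
  apply le_antisymm
  · rw [commutator_def]
    exact Subgroup.commutator_mono le_top le_top
  · apply commutator_le_commutator_of_central_supplement
    intro x
    obtain ⟨y, hy⟩ := commutator_map_surjective_of_perfect hQ ξ hs (ξ x)
    refine ⟨y, y.2, hc ?_⟩
    rw [MonoidHom.mem_ker, map_mul, map_inv]
    have : ξ (y : X) = ξ x := hy
    rw [this]; simp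

/-- uniqueness of lifts out of a perfect group into a central extension -/
lemma perfect_lift_unique {G : Type w} [Group G] (hG : Group.IsPerfect G) (ξ : X →* Q)
    (hc : ξ.ker ≤ Subgroup.center X) (η₁ η₂ : G →* X) (h : ξ.comp η₁ = ξ.comp η₂) : η₁ = η₂ := by
  have hmem : ∀ g, η₁ g * (η₂ g)⁻¹ ∈ Subgroup.center X := by
    intro g
    apply hc
    rw [MonoidHom.mem_ker, map_mul, map_inv]
    have : ξ (η₁ g) = ξ (η₂ g) := DFunLike.congr_fun h g
    rw [this]; simp
  let d : G →* Subgroup.center X :=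
    { toFun := fun g => ⟨η₁ g * (η₂ g)⁻¹, hmem g⟩
      map_one' := by ext; simp
      map_mul' := by
        intro a b
        ext
        simp only [map_mul, Subgroup.coe_mul]
        have hb := Subgroup.mem_center_iff.1 (hmem b) ((η₂ a)⁻¹)
        calc η₁ a * η₁ b * (η₂ a * η₂ b)⁻¹ = η₁ a * ((η₁ b * (η₂ b)⁻¹) * (η₂ a)⁻¹) := by group
          _ = η₁ a * ((η₂ a)⁻¹ * (η₁ b * (η₂ b)⁻¹)) := by rw [hb]
          _ = _ := by group }
  ext g
  have h1 := perfect_hom_comm_eq_one
    (fun a b => Subtype.ext (Subgroup.mem_center_iff.1 b.2 a)) hG d g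
  have h2 : η₁ g * (η₂ g)⁻¹ = 1 := congrArg Subtype.val h1
  exact mul_inv_eq_one.1 h2

end general

section fce
variable (Q : Type u) [Group Q]

/-- the canonical map from the free group on `Q` -/
def fcePhi : FreeGroup Q →* Q := FreeGroup.lift id

lemma fcePhi_surjective : Function.Surjective (fcePhi Q) := fun q => ⟨FreeGroup.of q, by simp [fcePhi]⟩

/-- `[R, F]` -/
def fceRel : Subgroup (FreeGroup Q) := ⁅(fcePhi Q).ker, (⊤ : Subgroup (FreeGroup Q))⁆

instance fceRel_normal : (fceRel Q).Normal := by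
  unfold fceRel; infer_instance

lemma fceRel_le_ker : fceRel Q ≤ (fcePhi Q).ker := by
  unfold fceRel
  exact Subgroup.commutator_le_left _ _

/-- the free central extension `F/[R,F]` of `Q` -/
abbrev FCE : Type u := FreeGroup Q ⧸ fceRel Q

/-- the projection of the free central extension -/
def fcePi : FCE Q →* Q := QuotientGroup.lift (fceRel Q) (fcePhi Q) (fun _ hx => fceRel_le_ker Q hx)

lemma fcePi_mk (x : FreeGroup Q) : fcePi Q (QuotientGroup.mk x) = fcePhi Q x := rfl

lemma fcePi_surjective : Function.Surjective (fcePi Q) := by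
  intro q
  obtain ⟨x, hx⟩ := fcePhi_surjective Q q
  exact ⟨QuotientGroup.mk x, hx⟩

lemma fcePi_ker_le_center : (fcePi Q).ker ≤ Subgroup.center (FCE Q) := by
  intro k hk
  obtain ⟨x, rfl⟩ := QuotientGroup.mk_surjective k
  rw [Subgroup.mem_center_iff]
  intro g
  obtain ⟨y, rfl⟩ := QuotientGroup.mk_surjective g
  have hx : x ∈ (fcePhi Q).ker := hk
  rw [← QuotientGroup.mk_mul, ← QuotientGroup.mk_mul, QuotientGroup.eq]
  have h1 : x * y * x⁻¹ * y⁻¹ ∈ fceRel Q :=
    Subgroup.commutator_mem_commutator hx (Subgroup.mem_top y)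
  have h2 := (fceRel_normal Q).conj_mem' _ h1 (y * x)
  convert h2 using 1
  group

variable {Q}

/-- the free central extension maps to every central extension -/
lemma fce_lift {X : Type v} [Group X] (ξ : X →* Q) (hs : Function.Surjective ξ)
    (hc : ξ.ker ≤ Subgroup.center X) : ∃ f : FCE Q →* X, ξ.comp f = fcePi Q := by
  let s : Q → X := fun q => (hs q).choose
  have hsq : ∀ q, ξ (s q) = q := fun q => (hs q).choose_spec
  let f₀ : FreeGroup Q →* X := FreeGroup.lift s
  have hf₀ : ξ.comp f₀ = fcePhi Q := by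
    ext q
    simp [f₀, fcePhi, hsq]
  have hker : fceRel Q ≤ f₀.ker := by
    unfold fceRel
    rw [Subgroup.commutator_le]
    intro a ha b _
    rw [MonoidHom.mem_ker, commutatorElement_def, map_mul, map_mul, map_mul, map_inv, map_inv]
    have h1 : f₀ a ∈ Subgroup.center X := by
      apply hc
      rw [MonoidHom.mem_ker]
      have : ξ (f₀ a) = fcePhi Q a := DFunLike.congr_fun hf₀ a
      rw [this]; exact ha
    rw [← Subgroup.mem_center_iff.1 h1 (f₀ b)]
    group
  refine ⟨QuotientGroup.lift (fceRel Q) f₀ (fun _ hx => hker hx), ?_⟩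
  apply MonoidHom.ext
  intro x
  obtain ⟨y, rfl⟩ := QuotientGroup.mk_surjective x
  exact DFunLike.congr_fun hf₀ y

end fce

end Cfsg.Agent.Lib.Helper21
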