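import Mathlib
import Cfsg.Prelude.Def_KGroupFacts
import Cfsg.Agent.Lib.Helper21.FreeCentral

set_option autoImplicit false

namespace Cfsg.Agent.Lib.Helper21

universe u v w

lemma exists_retraction_of_free {N : Type*} [CommGroup N] {M : Type*} [AddCommGroup M] {ι : Type*} [Finite ι]
    (b : Module.Basis ι ℤ M) (ψ : N →* Multiplicative M) :
    ∃ ρ : N →* N, (∀ n, ψ (ρ n) = ψ n) ∧ (∀ n, ψ n = 1 → ρ n = 1) := by
  let L₀ : Additive N →+ M :=
    { toFun := fun n => Multiplicative.toAdd (ψ (Additive.toMul n))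
      map_zero' := by simp
      map_add' := by intro x y; simp }
  let L : Additive N →ₗ[ℤ] M := L₀.toIntLinearMap
  obtain ⟨k, ⟨b'⟩⟩ := Submodule.nonempty_basis_of_pid b (LinearMap.range L)
  have : Module.Free ℤ (LinearMap.range L) := Module.Free.of_basis b'
  obtain ⟨σ, hσ⟩ := Module.projective_lifting_property L.rangeRestrict LinearMap.id
    L.surjective_rangeRestrict
  let R : Additive N →ₗ[ℤ] Additive N := σ ∘ₗ L.rangeRestrict
  have hR : ∀ n, L (R n) = L n := by
    intro n
    have := LinearMap.congr_fun hσ (L.rangeRestrict n)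
    exact congrArg Subtype.val this
  refine ⟨{ toFun := fun n => Additive.toMul (R (Additive.ofMul n))
            map_one' := by simp
            map_mul' := by intro x y; simp }, ?_, ?_⟩
  · intro n
    exact hR (Additive.ofMul n)
  · intro n hn
    have h0 : L.rangeRestrict (Additive.ofMul n) = 0 := by
      apply Subtype.ext
      exact hn
    change Additive.toMul (σ (L.rangeRestrict (Additive.ofMul n))) = 1
    rw [h0, map_zero]; rfl

section hopf
variable (Q : Type u) [Group Q]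

lemma fceRel_le_commutator : fceRel Q ≤ commutator (FreeGroup Q) := by
  unfold fceRel
  rw [commutator_def]
  exact Subgroup.commutator_mono le_top le_rfl

/-- the map from the free central extension to the free abelian group -/
def fceAb : FCE Q →* Abelianization (FreeGroup Q) :=
  QuotientGroup.lift (fceRel Q) Abelianization.of (fun x hx => by
    have : x ∈ (Abelianization.of (G := FreeGroup Q)).ker := by
      rw [Abelianization.ker_of]; exact fceRel_le_commutator Q hx
    exact this)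

lemma fceAb_ker : (fceAb Q).ker = commutator (FCE Q) := by
  apply le_antisymm
  · intro e he
    obtain ⟨x, rfl⟩ := QuotientGroup.mk_surjective e
    have hx : x ∈ (Abelianization.of (G := FreeGroup Q)).ker := he
    rw [Abelianization.ker_of] at hx
    have h1 : (commutator (FreeGroup Q)).map (QuotientGroup.mk' (fceRel Q)) ≤ commutator (FCE Q) := by
      rw [commutator_def, Subgroup.map_commutator, commutator_def]
      exact Subgroup.commutator_mono le_top le_top
    exact h1 (Subgroup.mem_map_of_mem _ hx)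
  · exact Abelianization.commutator_subset_ker _

/-- the Hopf multiplier `(R ∩ F')/[R,F]` -/
def fceT : Subgroup (FCE Q) := (fcePi Q).ker ⊓ commutator (FCE Q)

lemma fceT_finite [Finite Q] : Finite (fceT Q) := by
  have := finite_commutator_of_central (fcePi Q) (fcePi_ker_le_center Q)
  exact Finite.of_injective (Subgroup.inclusion (inf_le_right : fceT Q ≤ commutator (FCE Q)))
    (Subgroup.inclusion_injective _)

open scoped IsMulCommutative in
lemma exists_complement [Finite Q] (N : Subgroup (FCE Q)) (hN : N ≤ (fcePi Q).ker) :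
    ∃ S : Subgroup (FCE Q), S ≤ N ∧ S ⊓ commutator (FCE Q) = ⊥ ∧
      ∀ n ∈ N, ∃ s ∈ S, s⁻¹ * n ∈ commutator (FCE Q) := by
  have hcomm : IsMulCommutative N := by
    rw [isMulCommutative_iff]
    intro a b
    apply Subtype.ext
    exact (Subgroup.mem_center_iff.1 (fcePi_ker_le_center Q (hN b.2)) a)
  let ψ : N →* Multiplicative (FreeAbelianGroup Q) :=
    { toFun := fun n => Multiplicative.ofAdd (Additive.ofMul (fceAb Q n) : FreeAbelianGroup Q)
      map_one' := by simp; rfl
      map_mul' := by intro a b; simp; rfl }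
  have hψ : ∀ n : N, ψ n = 1 ↔ (n : FCE Q) ∈ commutator (FCE Q) := by
    intro n
    rw [← fceAb_ker, MonoidHom.mem_ker]
    rfl
  obtain ⟨ρ, hρ1, hρ2⟩ := exists_retraction_of_free (FreeAbelianGroup.basis Q) ψ
  refine ⟨ρ.range.map N.subtype, Subgroup.map_subtype_le _, ?_, ?_⟩
  · rw [eq_bot_iff]
    rintro _ ⟨⟨_, ⟨n, rfl⟩, rfl⟩, hx⟩
    have h1 : ψ (ρ n) = 1 := (hψ _).2 hx
    rw [hρ1] at h1
    rw [Subgroup.mem_bot]
    simp [hρ2 n h1]
  · intro n hn
    refine ⟨ρ ⟨n, hn⟩, ⟨_, ⟨_, rfl⟩, rfl⟩, ?_⟩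
    have h1 : ψ ((ρ ⟨n, hn⟩)⁻¹ * ⟨n, hn⟩) = 1 := by
      rw [map_mul, map_inv, hρ1]; simp
    exact (hψ _).1 h1

variable {Q}

/-- Image of the Hopf multiplier in a central extension. -/
lemma fceT_map {X : Type v} [Group X] (ξ : X →* Q) (hc : ξ.ker ≤ Subgroup.center X)
    (f : FCE Q →* X) (hf : ξ.comp f = fcePi Q) :
    (fceT Q).map f = ξ.ker ⊓ commutator X := by
  have hf' : ∀ e, ξ (f e) = fcePi Q e := fun e => DFunLike.congr_fun hf e
  apply le_antisymm
  · rintro _ ⟨t, ht, rfl⟩
    refine Subgroup.mem_inf.2 ⟨?_, ?_⟩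
    · rw [MonoidHom.mem_ker, hf']; exact ht.1
    · have h1 : (commutator (FCE Q)).map f ≤ commutator X := by
        rw [commutator_def, Subgroup.map_commutator, commutator_def]
        exact Subgroup.commutator_mono le_top le_top
      exact h1 (Subgroup.mem_map_of_mem _ ht.2)
  · intro k hk
    obtain ⟨hk1, hk2⟩ := Subgroup.mem_inf.1 hk
    have h1 : commutator X ≤ ⁅f.range, f.range⁆ := by
      apply commutator_le_commutator_of_central_supplement
      intro x
      obtain ⟨e, he⟩ := fcePi_surjective Q (ξ x)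
      refine ⟨f e, ⟨e, rfl⟩, hc ?_⟩
      rw [MonoidHom.mem_ker, map_mul, map_inv, hf', he]; simp
    have h2 : ⁅f.range, f.range⁆ = (commutator (FCE Q)).map f := by
      rw [commutator_def, Subgroup.map_commutator, ← MonoidHom.range_eq_map]
    rw [h2] at h1
    obtain ⟨e, he, rfl⟩ := h1 hk2
    refine ⟨e, Subgroup.mem_inf.2 ⟨?_, he⟩, rfl⟩
    rw [MonoidHom.mem_ker, ← hf']; exact hk1

/-- Data of the stem extension `E/S`. -/
lemma cover_of_complement [Finite Q] (S : Subgroup (FCE Q)) [S.Normal] (hS : S ≤ (fcePi Q).ker)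
    (hS1 : S ⊓ commutator (FCE Q) = ⊥)
    (hS2 : ∀ z ∈ (fcePi Q).ker, ∃ s ∈ S, s⁻¹ * z ∈ commutator (FCE Q)) :
    Finite (FCE Q ⧸ S) ∧
    Cfsg.IsStemExtension (QuotientGroup.lift S (fcePi Q) (fun _ hx => hS hx)) ∧
    Nonempty ((QuotientGroup.lift S (fcePi Q) (fun _ hx => hS hx)).ker ≃* fceT Q) := by
  set σ := QuotientGroup.lift S (fcePi Q) (fun _ hx => hS hx) with hσ
  have hσmk : ∀ e, σ (QuotientGroup.mk e) = fcePi Q e := fun e => rfl
  have hfinT := fceT_finite Q
  -- decomposition of the kernel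
  have hdec : ∀ z ∈ (fcePi Q).ker, ∃ t ∈ fceT Q, (QuotientGroup.mk z : FCE Q ⧸ S) = QuotientGroup.mk t := by
    intro z hz
    obtain ⟨s, hs, hsz⟩ := hS2 z hz
    refine ⟨s⁻¹ * z, Subgroup.mem_inf.2 ⟨Subgroup.mul_mem _ (Subgroup.inv_mem _ (hS hs)) hz, hsz⟩, ?_⟩
    rw [QuotientGroup.eq]
    have : z⁻¹ * (s⁻¹ * z) = z⁻¹ * s⁻¹ * z := by group
    rw [this]
    exact Subgroup.Normal.conj_mem' inferInstance _ (S.inv_mem hs) z
  have hσs : Function.Surjective σ := by
    intro q
    obtain ⟨e, he⟩ := fcePi_surjective Q q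
    exact ⟨QuotientGroup.mk e, he⟩
  refine ⟨?_, ⟨hσs, ?_, ?_⟩, ?_⟩
  · let s : Q → FCE Q := fun q => (fcePi_surjective Q q).choose
    have hs : ∀ q, fcePi Q (s q) = q := fun q => (fcePi_surjective Q q).choose_spec
    apply Finite.of_surjective (fun p : fceT Q × Q => (QuotientGroup.mk ((p.1 : FCE Q) * s p.2) : FCE Q ⧸ S))
    intro x
    obtain ⟨e, rfl⟩ := QuotientGroup.mk_surjective x
    have hz : e * (s (fcePi Q e))⁻¹ ∈ (fcePi Q).ker := by
      rw [MonoidHom.mem_ker, map_mul, map_inv, hs]; simp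
    obtain ⟨t, ht, hzt⟩ := hdec _ hz
    refine ⟨(⟨t, ht⟩, fcePi Q e), ?_⟩
    simp only [QuotientGroup.mk_mul]
    rw [← hzt, ← QuotientGroup.mk_mul]
    congr 1
    group
  · intro k hk
    obtain ⟨e, rfl⟩ := QuotientGroup.mk_surjective k
    have he : e ∈ Subgroup.center (FCE Q) := fcePi_ker_le_center Q hk
    rw [Subgroup.mem_center_iff]
    intro g
    obtain ⟨y, rfl⟩ := QuotientGroup.mk_surjective g
    rw [← QuotientGroup.mk_mul, ← QuotientGroup.mk_mul, Subgroup.mem_center_iff.1 he y]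
  · intro k hk
    obtain ⟨e, rfl⟩ := QuotientGroup.mk_surjective k
    obtain ⟨t, ht, het⟩ := hdec e hk
    rw [het]
    have h1 : (commutator (FCE Q)).map (QuotientGroup.mk' S) ≤ commutator (FCE Q ⧸ S) := by
      rw [commutator_def, Subgroup.map_commutator, commutator_def]
      exact Subgroup.commutator_mono le_top le_top
    exact h1 (Subgroup.mem_map_of_mem _ ht.2)
  · let θ : fceT Q →* σ.ker :=
      { toFun := fun t => ⟨QuotientGroup.mk (t : FCE Q), t.2.1⟩
        map_one' := rfl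
        map_mul' := fun a b => rfl }
    have hθi : Function.Injective θ := by
      rw [injective_iff_map_eq_one]
      intro t ht
      have h1 : (QuotientGroup.mk (t : FCE Q) : FCE Q ⧸ S) = 1 := congrArg Subtype.val ht
      rw [QuotientGroup.eq_one_iff] at h1
      have h2 : (t : FCE Q) ∈ S ⊓ commutator (FCE Q) := ⟨h1, t.2.2⟩
      rw [hS1, Subgroup.mem_bot] at h2
      exact Subtype.ext h2
    have hθs : Function.Surjective θ := by
      rintro ⟨k, hk⟩
      obtain ⟨e, rfl⟩ := QuotientGroup.mk_surjective k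
      obtain ⟨t, ht, het⟩ := hdec e hk
      exact ⟨⟨t, ht⟩, Subtype.ext het.symm⟩
    exact ⟨(MulEquiv.ofBijective θ ⟨hθi, hθs⟩).symm⟩

lemma normal_of_le_ker (S : Subgroup (FCE Q)) (hS : S ≤ (fcePi Q).ker) : S.Normal := by
  constructor
  intro s hs g
  have := Subgroup.mem_center_iff.1 (fcePi_ker_le_center Q (hS hs)) g
  rw [this]
  simpa using hs

/-- A group `A` satisfying `HasSchurMultiplier Q A` is isomorphic to the Hopf multiplier. -/
lemma schur_equiv [Finite Q] {A : Type v} [CommGroup A] (hA : Cfsg.HasSchurMultiplier Q A) :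
    Nonempty (A ≃* fceT Q) := by
  have hfinT := fceT_finite Q
  -- a surjection A → T
  obtain ⟨S, hS, hS1, hS2⟩ := exists_complement Q (fcePi Q).ker le_rfl
  have := normal_of_le_ker S hS
  obtain ⟨hfin, hstem, ⟨e⟩⟩ := cover_of_complement S hS hS1 hS2
  obtain ⟨π₁, hπ₁⟩ := hA.2 (FCE Q ⧸ S) _ hstem
  -- a surjection T → A
  obtain ⟨Γ, _, _, σ, hσ, ⟨e'⟩⟩ := hA.1
  obtain ⟨f, hf⟩ := fce_lift σ hσ.1 hσ.2.1
  have hmap := fceT_map σ hσ.2.1 f hf
  rw [inf_eq_left.2 hσ.2.2] at hmap
  have hfinA : Finite A := Finite.of_equiv _ e'.toEquiv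
  have hle1 : Nat.card (fceT Q) ≤ Nat.card A :=
    Nat.card_le_card_of_surjective (e ∘ π₁) (e.surjective.comp hπ₁)
  have hle2 : Nat.card A ≤ Nat.card (fceT Q) := by
    rw [← Nat.card_congr e'.toEquiv, ← hmap]
    exact Nat.card_le_card_of_surjective (fun t : fceT Q => (⟨f t, Subgroup.mem_map_of_mem _ t.2⟩ : (fceT Q).map f))
      (by rintro ⟨_, ⟨t, ht, rfl⟩⟩; exact ⟨⟨t, ht⟩, rfl⟩)
  have hs : Function.Surjective (e.toMonoidHom.comp π₁) := e.surjective.comp hπ₁
  have hbij : Function.Bijective (e.toMonoidHom.comp π₁) :=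
    Function.Surjective.bijective_of_nat_card_le hs hle2
  exact ⟨MulEquiv.ofBijective _ hbij⟩

/-- KEY: in any central extension `X` of `Q`, `ker ∩ X'` is an image of the multiplier. -/
lemma schur_key [Finite Q] {A : Type v} [CommGroup A] (hA : Cfsg.HasSchurMultiplier Q A)
    {X : Type w} [Group X] (ξ : X →* Q) (hs : Function.Surjective ξ) (hc : ξ.ker ≤ Subgroup.center X) :
    ∃ θ : A →* (ξ.ker ⊓ commutator X : Subgroup X), Function.Surjective θ := by
  obtain ⟨e⟩ := schur_equiv hA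
  obtain ⟨f, hf⟩ := fce_lift ξ hs hc
  have hmap := fceT_map ξ hc f hf
  let g : fceT Q →* (ξ.ker ⊓ commutator X : Subgroup X) :=
    { toFun := fun t => ⟨f t, hmap ▸ Subgroup.mem_map_of_mem _ t.2⟩
      map_one' := by ext; simp
      map_mul' := by intro a b; ext; simp }
  refine ⟨g.comp e.toMonoidHom, ?_⟩
  have hg : Function.Surjective g := by
    rintro ⟨k, hk⟩
    rw [← hmap] at hk
    obtain ⟨t, ht, rfl⟩ := hk
    exact ⟨⟨t, ht⟩, rfl⟩
  exact hg.comp e.surjective

end hopf

end Cfsg.Agent.Lib.Helper21
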