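import Mathlib
import Cfsg.Prelude.Def_KGroupFacts
import Cfsg.Agent.Lib.Helper21.Hopf

set_option autoImplicit false

namespace Cfsg.Agent.Lib.Helper21

section gce
variable {F : Type*} {Q : Type*} [Group F] [Group Q] (φ : F →* Q)

/-- `[R, F]` for `R = ker φ` -/
def gRel : Subgroup F := ⁅φ.ker, (⊤ : Subgroup F)⁆

instance gRel_normal : (gRel φ).Normal := by
  unfold gRel; infer_instance

lemma gRel_le_ker : gRel φ ≤ φ.ker := by
  unfold gRel
  exact Subgroup.commutator_le_left _ _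

/-- the central extension `F/[R,F]` of `Q` -/
abbrev GCE := F ⧸ gRel φ

/-- the projection -/
def gPi : GCE φ →* Q := QuotientGroup.lift (gRel φ) φ (fun _ hx => gRel_le_ker φ hx)

lemma gPi_mk (x : F) : gPi φ (QuotientGroup.mk x) = φ x := rfl

lemma gPi_surjective (hφ : Function.Surjective φ) : Function.Surjective (gPi φ) := by
  intro q
  obtain ⟨x, hx⟩ := hφ q
  exact ⟨QuotientGroup.mk x, hx⟩

lemma gPi_ker_le_center : (gPi φ).ker ≤ Subgroup.center (GCE φ) := by
  intro k hk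
  obtain ⟨x, rfl⟩ := QuotientGroup.mk_surjective k
  rw [Subgroup.mem_center_iff]
  intro g
  obtain ⟨y, rfl⟩ := QuotientGroup.mk_surjective g
  have hx : x ∈ φ.ker := hk
  rw [← QuotientGroup.mk_mul, ← QuotientGroup.mk_mul, QuotientGroup.eq]
  have h1 : x * y * x⁻¹ * y⁻¹ ∈ gRel φ :=
    Subgroup.commutator_mem_commutator hx (Subgroup.mem_top y)
  have h2 := (gRel_normal φ).conj_mem' _ h1 (y * x)
  convert h2 using 1
  group

/-- descent of a homomorphism over `Q` into a central extension -/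
lemma g_descend {X : Type*} [Group X] (ξ : X →* Q) (hc : ξ.ker ≤ Subgroup.center X)
    (f₀ : F →* X) (hf₀ : ξ.comp f₀ = φ) : ∃ f : GCE φ →* X, ξ.comp f = gPi φ ∧
      ∀ x, f (QuotientGroup.mk x) = f₀ x := by
  have hker : gRel φ ≤ f₀.ker := by
    unfold gRel
    rw [Subgroup.commutator_le]
    intro a ha b _
    rw [MonoidHom.mem_ker, commutatorElement_def, map_mul, map_mul, map_mul, map_inv, map_inv]
    have h1 : f₀ a ∈ Subgroup.center X := by
      apply hc
      rw [MonoidHom.mem_ker]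
      have : ξ (f₀ a) = φ a := DFunLike.congr_fun hf₀ a
      rw [this]; exact ha
    rw [← Subgroup.mem_center_iff.1 h1 (f₀ b)]
    group
  refine ⟨QuotientGroup.lift (gRel φ) f₀ (fun _ hx => hker hx), ?_, fun _ => rfl⟩
  apply MonoidHom.ext
  intro x
  obtain ⟨y, rfl⟩ := QuotientGroup.mk_surjective x
  exact DFunLike.congr_fun hf₀ y

lemma g_lift [IsFreeGroup F] {X : Type*} [Group X] (ξ : X →* Q) (hs : Function.Surjective ξ)
    (hc : ξ.ker ≤ Subgroup.center X) : ∃ f : GCE φ →* X, ξ.comp f = gPi φ := by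
  let s : Q → X := fun q => (hs q).choose
  have hsq : ∀ q, ξ (s q) = q := fun q => (hs q).choose_spec
  let f₀ : F →* X := IsFreeGroup.lift (fun a => s (φ (IsFreeGroup.of a)))
  have hf₀ : ξ.comp f₀ = φ := by
    apply IsFreeGroup.ext_hom
    intro a
    simp [f₀, hsq]
  obtain ⟨f, hf, _⟩ := g_descend φ ξ hc f₀ hf₀
  exact ⟨f, hf⟩

/-- the Hopf multiplier `(R ∩ F')/[R,F]` -/
def gT : Subgroup (GCE φ) := (gPi φ).ker ⊓ commutator (GCE φ)

variable {φ}

lemma gT_map (hφ : Function.Surjective φ) {X : Type*} [Group X] (ξ : X →* Q)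
    (hc : ξ.ker ≤ Subgroup.center X)
    (f : GCE φ →* X) (hf : ξ.comp f = gPi φ) :
    (gT φ).map f = ξ.ker ⊓ commutator X := by
  have hf' : ∀ e, ξ (f e) = gPi φ e := fun e => DFunLike.congr_fun hf e
  apply le_antisymm
  · rintro _ ⟨t, ht, rfl⟩
    refine Subgroup.mem_inf.2 ⟨?_, ?_⟩
    · rw [MonoidHom.mem_ker, hf']; exact ht.1
    · have h1 : (commutator (GCE φ)).map f ≤ commutator X := by
        rw [commutator_def, Subgroup.map_commutator, commutator_def]
        exact Subgroup.commutator_mono le_top le_top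
      exact h1 (Subgroup.mem_map_of_mem _ ht.2)
  · intro k hk
    obtain ⟨hk1, hk2⟩ := Subgroup.mem_inf.1 hk
    have h1 : commutator X ≤ ⁅f.range, f.range⁆ := by
      apply commutator_le_commutator_of_central_supplement
      intro x
      obtain ⟨e, he⟩ := gPi_surjective φ hφ (ξ x)
      refine ⟨f e, ⟨e, rfl⟩, hc ?_⟩
      rw [MonoidHom.mem_ker, map_mul, map_inv, hf', he]; simp
    have h2 : ⁅f.range, f.range⁆ = (commutator (GCE φ)).map f := by
      rw [commutator_def, Subgroup.map_commutator, ← MonoidHom.range_eq_map]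
    rw [h2] at h1
    obtain ⟨e, he, rfl⟩ := h1 hk2
    refine ⟨e, Subgroup.mem_inf.2 ⟨?_, he⟩, rfl⟩
    rw [MonoidHom.mem_ker, ← hf']; exact hk1

/-- Hopf's formula for an arbitrary free presentation. -/
lemma g_schur_equiv [IsFreeGroup F] [Finite Q] (hφ : Function.Surjective φ) {A : Type*} [CommGroup A]
    (hA : Cfsg.HasSchurMultiplier Q A) : Nonempty (A ≃* gT φ) := by
  obtain ⟨θ, hθ⟩ := schur_key hA (gPi φ) (gPi_surjective φ hφ) (gPi_ker_le_center φ)
  obtain ⟨Γ, _, _, σ, hσ, ⟨e'⟩⟩ := hA.1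
  obtain ⟨f, hf⟩ := g_lift φ σ hσ.1 hσ.2.1
  have hmap := gT_map hφ σ hσ.2.1 f hf
  rw [inf_eq_left.2 hσ.2.2] at hmap
  have hfinA : Finite A := Finite.of_equiv _ e'.toEquiv
  have hfinT : Finite (gT φ) := Finite.of_surjective θ hθ
  have hle2 : Nat.card A ≤ Nat.card (gT φ) := by
    rw [← Nat.card_congr e'.toEquiv, ← hmap]
    exact Nat.card_le_card_of_surjective
      (fun t : gT φ => (⟨f t, Subgroup.mem_map_of_mem _ t.2⟩ : (gT φ).map f))
      (by rintro ⟨_, ⟨t, ht, rfl⟩⟩; exact ⟨⟨t, ht⟩, rfl⟩)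
  exact ⟨MulEquiv.ofBijective θ (Function.Surjective.bijective_of_nat_card_le hθ hle2)⟩

end gce

end Cfsg.Agent.Lib.Helper21
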