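import Mathlib

set_option autoImplicit false

namespace Cfsg.Agent.Lib.Helper21

open Matrix

section
variable {Δ : Type*} [Group Δ] (L : Subgroup Δ)

lemma mcoc_mem (g : Δ) (q : Δ ⧸ L) : (g • q).out⁻¹ * g * q.out ∈ L := by
  rw [mul_assoc, ← QuotientGroup.eq]
  have h1 : (QuotientGroup.mk (g * q.out) : Δ ⧸ L) = g • (QuotientGroup.mk q.out : Δ ⧸ L) := rfl
  rw [h1, QuotientGroup.out_eq', QuotientGroup.out_eq']

/-- the monomial cocycle -/
noncomputable def mcoc (g : Δ) (q : Δ ⧸ L) : L := ⟨(g • q).out⁻¹ * g * q.out, mcoc_mem L g q⟩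

lemma mcoc_mul (g h : Δ) (q : Δ ⧸ L) : mcoc L (g * h) q = mcoc L g (h • q) * mcoc L h q := by
  apply Subtype.ext
  change ((g * h) • q).out⁻¹ * (g * h) * q.out =
    ((g • (h • q)).out⁻¹ * g * (h • q).out) * ((h • q).out⁻¹ * h * q.out)
  rw [mul_smul]
  group

lemma mcoc_one (q : Δ ⧸ L) : mcoc L 1 q = 1 := by
  apply Subtype.ext
  change ((1 : Δ) • q).out⁻¹ * 1 * q.out = 1
  rw [one_smul]; group

lemma central_smul (hL : L ≤ Subgroup.center Δ) (z : Δ) (hz : z ∈ L) (q : Δ ⧸ L) : z • q = q := by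
  obtain ⟨x, rfl⟩ := QuotientGroup.mk_surjective q
  change (QuotientGroup.mk (z * x) : Δ ⧸ L) = QuotientGroup.mk x
  rw [eq_comm, QuotientGroup.eq, ← Subgroup.mem_center_iff.1 (hL hz) x]
  simpa using hz

lemma mcoc_central (hL : L ≤ Subgroup.center Δ) (z : Δ) (hz : z ∈ L) (q : Δ ⧸ L) :
    mcoc L z q = ⟨z, hz⟩ := by
  apply Subtype.ext
  change (z • q).out⁻¹ * z * q.out = z
  rw [central_smul L hL z hz, mul_assoc, ← Subgroup.mem_center_iff.1 (hL hz) q.out]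
  group

end

lemma exists_rep_central {Δ : Type*} [Group Δ] [Finite Δ] (L : Subgroup Δ)
    (hL : L ≤ Subgroup.center Δ) (l : Δ) (hl : l ∈ L) (hl1 : l ≠ 1) :
    ∃ (n : ℕ) (R : Δ →* GL (Fin n) ℂ),
      (∀ z ∈ L, R z ∈ Subgroup.center (GL (Fin n) ℂ)) ∧ R l ≠ 1 := by
  classical
  let _ : CommGroup L := { (inferInstance : Group L) with
    mul_comm := fun a b => Subtype.ext (Subgroup.mem_center_iff.1 (hL b.2) (a : Δ)) }
  obtain ⟨lam, hlam⟩ := CommGroup.exists_apply_ne_one_of_hasEnoughRootsOfUnity L ℂ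
    (a := ⟨l, hl⟩) (fun h => hl1 (congrArg Subtype.val h))
  have := Fintype.ofFinite (Δ ⧸ L)
  let M : Δ → Matrix (Δ ⧸ L) (Δ ⧸ L) ℂ :=
    fun g q' q => if q' = g • q then ((lam (mcoc L g q) : ℂˣ) : ℂ) else 0
  let M₀ : Δ →* Matrix (Δ ⧸ L) (Δ ⧸ L) ℂ :=
    { toFun := M
      map_one' := by
        ext q' q
        simp only [M, one_smul, mcoc_one, map_one, Units.val_one, Matrix.one_apply]
      map_mul' := by
        intro g h
        ext q'' q
        rw [Matrix.mul_apply]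
        simp only [M, mul_ite, mul_zero, Finset.sum_ite_eq', Finset.mem_univ,
          if_true, mul_smul, mcoc_mul, map_mul, Units.val_mul, ite_mul, zero_mul] }
  have hMz : ∀ z (hz : z ∈ L), M z = ((lam ⟨z, hz⟩ : ℂˣ) : ℂ) • (1 : Matrix (Δ ⧸ L) (Δ ⧸ L) ℂ) := by
    intro z hz
    ext q' q
    simp only [M, central_smul L hL z hz, mcoc_central L hL z hz, Matrix.smul_apply,
      Matrix.one_apply, smul_eq_mul, mul_ite, mul_one, mul_zero]
  let e : (Δ ⧸ L) ≃ Fin (Fintype.card (Δ ⧸ L)) := Fintype.equivFin _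
  let R₀ : Δ →* Matrix (Fin (Fintype.card (Δ ⧸ L))) (Fin (Fintype.card (Δ ⧸ L))) ℂ :=
    ((Matrix.reindexAlgEquiv ℂ ℂ e : _ ≃ₐ[ℂ] _) : _ →* _).comp M₀
  have hR₀ : ∀ g, R₀ g = Matrix.reindexAlgEquiv ℂ ℂ e (M g) := fun g => rfl
  refine ⟨Fintype.card (Δ ⧸ L), R₀.toHomUnits, ?_, ?_⟩
  · intro z hz
    rw [Matrix.GeneralLinearGroup.mem_center_iff_val_mem_range_scalar]
    refine ⟨((lam ⟨z, hz⟩ : ℂˣ) : ℂ), ?_⟩
    change _ = R₀ z
    rw [hR₀, hMz z hz, map_smul, map_one]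
    ext i j
    simp [Matrix.scalar_apply, Matrix.diagonal_apply, Matrix.one_apply]
  · intro h
    have h1 : R₀ l = 1 := congrArg Units.val h
    rw [hR₀, hMz l hl] at h1
    have h2 : ((lam ⟨l, hl⟩ : ℂˣ) : ℂ) • (1 : Matrix (Δ ⧸ L) (Δ ⧸ L) ℂ) = 1 := by
      apply (Matrix.reindexAlgEquiv ℂ ℂ e).injective
      rw [h1, map_one]
    have h3 := congrFun (congrFun h2 (QuotientGroup.mk 1)) (QuotientGroup.mk 1)
    simp only [Matrix.smul_apply, Matrix.one_apply, if_true, smul_eq_mul, mul_one] at h3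
    exact hlam (Units.ext h3)

end Cfsg.Agent.Lib.Helper21
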