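import Mathlib
import Cfsg.Prelude.Def_KGroupFacts
import Cfsg.Agent.Lib.Helper21.HopfGen
import Cfsg.Agent.Lib.Helper21.Pullback

set_option autoImplicit false

namespace Cfsg.Agent.Lib.Helper21

/-- The transfer of an element acting trivially on the cosets. -/
lemma transfer_eq_prod_of_conj_mem {G : Type*} [Group G] {H : Subgroup G} [H.FiniteIndex] {A : Type*}
    [CommGroup A] (ϕ : H →* A) (x : G) (hx : ∀ g : G, g⁻¹ * x * g ∈ H) [Fintype (G ⧸ H)] :
    MonoidHom.transfer ϕ x = ∏ q : G ⧸ H, ϕ ⟨q.out⁻¹ * x * q.out, hx _⟩ := by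
  have hf : ∀ q : G ⧸ H, ((Quotient.out q : G) : G ⧸ H) = q := fun q => QuotientGroup.out_eq' q
  let T : H.LeftTransversal := ⟨Set.range (fun q : G ⧸ H => (Quotient.out q : G)),
    Subgroup.isComplement_range_left hf⟩
  rw [MonoidHom.transfer_def ϕ T x]
  unfold Subgroup.leftTransversals.diff
  simp only []
  have htriv : ∀ q : G ⧸ H, x⁻¹ • q = q := by
    intro q
    obtain ⟨g, rfl⟩ := QuotientGroup.mk_surjective q
    change (QuotientGroup.mk (x⁻¹ * g) : G ⧸ H) = QuotientGroup.mk g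
    rw [QuotientGroup.eq]
    have := hx g
    convert this using 1
    group
  refine Finset.prod_congr (Finset.ext fun _ => by simp) ?_
  intro q _
  congr 1
  apply Subtype.ext
  change ((T.2.leftQuotientEquiv q : G))⁻¹ * (((x • T).2.leftQuotientEquiv q : G)) = _
  rw [Subgroup.smul_apply_eq_smul_apply_inv_smul, htriv,
    Subgroup.IsComplement.leftQuotientEquiv_apply hf q]
  simp [mul_assoc]

/-- A split injection gives a direct factor. -/
lemma direct_factor_of_split {A' B : Type*} [Group A'] [CommGroup B] (t : A' →* B) (ψ : B →* A')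
    (h : ∀ a, ψ (t a) = a) :
    ∃ C D : Subgroup B, C ⊓ D = ⊥ ∧ C ⊔ D = ⊤ ∧ Nonempty (A' ≃* C) := by
  have hinj : Function.Injective t := fun a b hab => by rw [← h a, ← h b, hab]
  refine ⟨t.range, ψ.ker, ?_, ?_, ⟨MonoidHom.ofInjective hinj⟩⟩
  · rw [eq_bot_iff]
    rintro _ ⟨⟨a, rfl⟩, hb⟩
    have : ψ (t a) = 1 := hb
    rw [h] at this
    rw [this, map_one]; exact Subgroup.mem_bot.2 rfl
  · rw [eq_top_iff]
    intro b _
    have h1 : b = t (ψ b) * ((t (ψ b))⁻¹ * b) := by group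
    rw [h1]
    apply Subgroup.mul_mem_sup (MonoidHom.mem_range.2 ⟨_, rfl⟩)
    rw [MonoidHom.mem_ker, map_mul, map_inv, h]; simp

lemma direct_factor_of_cor_tr {A B : Type*} [CommGroup A] [Finite A] [CommGroup B] (p : ℕ)
    [hp : Fact p.Prime] (m : ℕ) (hm : ¬ p ∣ m) (cor : B →* A) (tr : A →* B)
    (h : ∀ a, cor (tr a) = a ^ m) :
    ∃ C D : Subgroup B, C ⊓ D = ⊥ ∧ C ⊔ D = ⊤ ∧
      Nonempty (CommGroup.primaryComponent A p ≃* C) := by
  classical
  set Ap := CommGroup.primaryComponent A p with hAp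
  obtain ⟨a, s, hs, hcard⟩ := Nat.exists_eq_pow_mul_and_not_dvd (Nat.card_pos (α := A)).ne' p
    hp.out.ne_one
  have hmem : ∀ x : A, x ^ s ∈ Ap := by
    intro x
    have h1 : (x ^ s) ^ (p ^ a) = 1 := by
      rw [← pow_mul, mul_comm, ← hcard]; exact pow_card_eq_one'
    exact ⟨a, h1⟩
  let q : A →* Ap :=
    { toFun := fun x => ⟨x ^ s, hmem x⟩
      map_one' := by apply Subtype.ext; simp
      map_mul' := by intro x y; apply Subtype.ext; simp [mul_pow] }
  let w : Ap →* Ap := powMonoidHom (s * m)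
  have hwi : Function.Injective w := by
    rw [injective_iff_map_eq_one]
    intro x hx
    obtain ⟨k, hk⟩ := x.2
    have h1 : (x : A) ^ (s * m) = 1 := congrArg Subtype.val hx
    have h3 : Nat.Coprime (p ^ k) (s * m) := by
      apply Nat.Coprime.pow_left
      rw [Nat.Prime.coprime_iff_not_dvd hp.out, Nat.Prime.dvd_mul hp.out]
      tauto
    have h4 := pow_gcd_eq_one.2 ⟨hk, h1⟩
    rw [Nat.Coprime.gcd_eq_one h3, pow_one] at h4
    exact Subtype.ext h4
  have hwb : Function.Bijective w := Finite.injective_iff_bijective.1 hwi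
  let W : Ap ≃* Ap := MulEquiv.ofBijective w hwb
  apply direct_factor_of_split (tr.comp Ap.subtype) (W.symm.toMonoidHom.comp (q.comp cor))
  intro x
  change W.symm (q (cor (tr x))) = x
  rw [MulEquiv.symm_apply_eq, h]
  apply Subtype.ext
  change ((x : A) ^ m) ^ s = (x : A) ^ (s * m)
  rw [← pow_mul, mul_comm]

/-- the kernel of `gPi` is commutative -/
abbrev kerCommGroup {F Q : Type*} [Group F] [Group Q] (φ : F →* Q) : CommGroup (gPi φ).ker :=
  { (inferInstance : Group (gPi φ).ker) with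
    mul_comm := fun a b => Subtype.ext
      (Subgroup.mem_center_iff.1 (gPi_ker_le_center φ b.2) (a : GCE φ)) }

section transfer
variable {F G : Type*} [Group F] [Group G] (φ : F →* G) (U : Subgroup G)

attribute [local instance] kerCommGroup

lemma conj_mem_comap (x : F) (hx : x ∈ φ.ker) (g : F) : g⁻¹ * x * g ∈ U.comap φ := by
  rw [Subgroup.mem_comap, map_mul, map_mul, (MonoidHom.mem_ker).1 hx]
  simp [U.one_mem]

/-- the class of `g⁻¹ x g` in `S/[R,S]` -/
def yy (x : φ.ker) (g : F) : (gPi (φ.subgroupComap U)).ker :=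
  ⟨QuotientGroup.mk ⟨g⁻¹ * x * g, conj_mem_comap φ U x x.2 g⟩, by
    rw [MonoidHom.mem_ker, gPi_mk]
    apply Subtype.ext
    change φ (g⁻¹ * x * g) = 1
    rw [map_mul, map_mul, (MonoidHom.mem_ker).1 x.2]; simp⟩

lemma yy_mul (x x' : φ.ker) (g : F) : yy φ U (x * x') g = yy φ U x g * yy φ U x' g := by
  apply Subtype.ext
  change (QuotientGroup.mk _ : GCE (φ.subgroupComap U)) = QuotientGroup.mk _ * QuotientGroup.mk _
  rw [← QuotientGroup.mk_mul]
  congr 1
  apply Subtype.ext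
  change g⁻¹ * ((x : F) * x') * g = (g⁻¹ * x * g) * (g⁻¹ * x' * g)
  group

lemma yy_one (g : F) : yy φ U 1 g = 1 := by
  have := yy_mul φ U 1 1 g
  rw [mul_one] at this
  exact (mul_eq_left.1 this.symm)

lemma yy_mul_right (x : φ.ker) (g : F) (s : U.comap φ) : yy φ U x (g * s) = yy φ U x g := by
  apply Subtype.ext
  have hc := Subgroup.mem_center_iff.1 (gPi_ker_le_center _ (yy φ U x g).2)
    (QuotientGroup.mk s⁻¹ : GCE (φ.subgroupComap U))
  have h1 : (⟨(g * s)⁻¹ * x * (g * s), conj_mem_comap φ U x x.2 (g * s)⟩ : U.comap φ)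
      = s⁻¹ * ⟨g⁻¹ * x * g, conj_mem_comap φ U x x.2 g⟩ * s := by
    apply Subtype.ext
    change (g * s)⁻¹ * x * (g * s) = (s : F)⁻¹ * (g⁻¹ * x * g) * s
    group
  change (QuotientGroup.mk _ : GCE (φ.subgroupComap U)) = QuotientGroup.mk _
  rw [h1, QuotientGroup.mk_mul, QuotientGroup.mk_mul]
  change (QuotientGroup.mk s⁻¹ : GCE (φ.subgroupComap U)) * (yy φ U x g : GCE (φ.subgroupComap U)) *
    QuotientGroup.mk s = (yy φ U x g : GCE (φ.subgroupComap U))
  rw [hc, mul_assoc, ← QuotientGroup.mk_mul, inv_mul_cancel]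
  simp

lemma yy_congr (x : φ.ker) (g g' : F)
    (h : (QuotientGroup.mk g : F ⧸ U.comap φ) = QuotientGroup.mk g') : yy φ U x g = yy φ U x g' := by
  have h1 : g⁻¹ * g' ∈ U.comap φ := QuotientGroup.eq.1 h
  have h2 := yy_mul_right φ U x g ⟨_, h1⟩
  rw [← h2]
  congr 1
  simp

lemma conj_mem_ker (x : F) (hx : x ∈ φ.ker) (f : F) : f * x * f⁻¹ ∈ φ.ker :=
  (inferInstance : φ.ker.Normal).conj_mem x hx f

lemma yy_conj (x : φ.ker) (f g : F) :
    yy φ U ⟨f * x * f⁻¹, conj_mem_ker φ x x.2 f⟩ g = yy φ U x (f⁻¹ * g) := by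
  apply Subtype.ext
  change (QuotientGroup.mk _ : GCE (φ.subgroupComap U)) = QuotientGroup.mk _
  congr 1
  apply Subtype.ext
  change g⁻¹ * (f * x * f⁻¹) * g = (f⁻¹ * g)⁻¹ * x * (f⁻¹ * g)
  group

/-- corestriction `S/[R,S] → F/[R,F]` -/
def cor₀ : GCE (φ.subgroupComap U) →* GCE φ :=
  QuotientGroup.lift _ ((QuotientGroup.mk' (gRel φ)).comp (U.comap φ).subtype) (by
    have hle : gRel (φ.subgroupComap U) ≤
        ((QuotientGroup.mk' (gRel φ)).comp (U.comap φ).subtype).ker := by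
      unfold gRel
      rw [Subgroup.commutator_le]
      intro a ha b _
      rw [MonoidHom.mem_ker, commutatorElement_def]
      change (QuotientGroup.mk ((a : F) * b * (a : F)⁻¹ * (b : F)⁻¹) : GCE φ) = 1
      rw [QuotientGroup.eq_one_iff]
      have ha' : (a : F) ∈ φ.ker := congrArg Subtype.val ha
      exact Subgroup.commutator_mem_commutator ha' (Subgroup.mem_top (b : F))
    exact fun x hx => hle hx)

lemma cor₀_mk (s : U.comap φ) : cor₀ φ U (QuotientGroup.mk s) = QuotientGroup.mk (s : F) := rfl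

lemma gPi_cor₀ (y : GCE (φ.subgroupComap U)) : gPi φ (cor₀ φ U y) = (gPi (φ.subgroupComap U) y : G) := by
  obtain ⟨s, rfl⟩ := QuotientGroup.mk_surjective y
  rfl

/-- corestriction on kernels -/
def corZ : (gPi (φ.subgroupComap U)).ker →* (gPi φ).ker where
  toFun y := ⟨cor₀ φ U y, by
    rw [MonoidHom.mem_ker, gPi_cor₀, (MonoidHom.mem_ker).1 y.2]; rfl⟩
  map_one' := by apply Subtype.ext; simp
  map_mul' a b := by apply Subtype.ext; simp

lemma corZ_yy (x : φ.ker) (g : F) :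
    corZ φ U (yy φ U x g) = ⟨QuotientGroup.mk (x : F), by
      rw [MonoidHom.mem_ker, gPi_mk]; exact x.2⟩ := by
  apply Subtype.ext
  change (QuotientGroup.mk (g⁻¹ * x * g) : GCE φ) = QuotientGroup.mk (x : F)
  have hc : (QuotientGroup.mk (x : F) : GCE φ) ∈ Subgroup.center (GCE φ) := by
    apply gPi_ker_le_center
    rw [MonoidHom.mem_ker, gPi_mk]; exact x.2
  rw [QuotientGroup.mk_mul, QuotientGroup.mk_mul, Subgroup.mem_center_iff.1 hc, mul_assoc,
    ← QuotientGroup.mk_mul, inv_mul_cancel]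
  simp

variable [Fintype (F ⧸ U.comap φ)]

/-- the norm map `R → R/[R,S]` -/
noncomputable def NN : φ.ker →* (gPi (φ.subgroupComap U)).ker where
  toFun x := ∏ q : F ⧸ U.comap φ, yy φ U x q.out
  map_one' := by simp [yy_one]
  map_mul' x x' := by
    rw [← Finset.prod_mul_distrib]
    exact Finset.prod_congr rfl (fun q _ => yy_mul φ U x x' _)

lemma NN_apply (x : φ.ker) : NN φ U x = ∏ q : F ⧸ U.comap φ, yy φ U x q.out := rfl

lemma NN_conj (x : φ.ker) (f : F) : NN φ U ⟨f * x * f⁻¹, conj_mem_ker φ x x.2 f⟩ = NN φ U x := by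
  rw [NN_apply, NN_apply]
  rw [← Equiv.prod_comp (MulAction.toPerm f⁻¹ : Equiv.Perm (F ⧸ U.comap φ))
    (fun q => yy φ U x q.out)]
  refine Finset.prod_congr rfl (fun q _ => ?_)
  rw [yy_conj]
  apply yy_congr
  change f⁻¹ • (QuotientGroup.mk q.out : F ⧸ U.comap φ) = QuotientGroup.mk (f⁻¹ • q).out
  rw [QuotientGroup.out_eq', QuotientGroup.out_eq']

lemma NN_rel (x : φ.ker) (hx : (x : F) ∈ gRel φ) : NN φ U x = 1 := by
  have hle : gRel φ ≤ (NN φ U).ker.map φ.ker.subtype := by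
    unfold gRel
    rw [Subgroup.commutator_le]
    intro a ha b _
    refine ⟨⟨a, ha⟩ * ⟨b * (⟨a, ha⟩ : φ.ker)⁻¹ * b⁻¹, conj_mem_ker φ _ (⟨a, ha⟩ : φ.ker)⁻¹.2 b⟩, ?_, ?_⟩
    · change _ ∈ (NN φ U).ker
      rw [MonoidHom.mem_ker, map_mul, NN_conj, map_inv, mul_inv_cancel]
    · rw [commutatorElement_def]
      change a * (b * a⁻¹ * b⁻¹) = _
      group
  obtain ⟨y, hy, hyx⟩ := hle hx
  have : y = x := Subtype.ext hyx
  rw [← this]; exact hy

lemma NN_congr (x x' : φ.ker) (h : (QuotientGroup.mk (x : F) : GCE φ) = QuotientGroup.mk (x' : F)) :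
    NN φ U x = NN φ U x' := by
  have h1 : ((x⁻¹ * x' : φ.ker) : F) ∈ gRel φ := QuotientGroup.eq.1 h
  have h2 := NN_rel φ U _ h1
  rw [map_mul, map_inv, inv_mul_eq_one] at h2
  exact h2

lemma out_mem_ker (z : (gPi φ).ker) : (z : GCE φ).out ∈ φ.ker := by
  have h1 : gPi φ (QuotientGroup.mk (z : GCE φ).out) = 1 := by
    rw [QuotientGroup.out_eq']; exact z.2
  exact h1

/-- the transfer `R/[R,F] → R/[R,S]` -/
noncomputable def trZ : (gPi φ).ker →* (gPi (φ.subgroupComap U)).ker where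
  toFun z := NN φ U ⟨(z : GCE φ).out, out_mem_ker φ z⟩
  map_one' := by
    rw [← map_one (NN φ U)]
    apply NN_congr
    change (QuotientGroup.mk ((1 : (gPi φ).ker) : GCE φ).out : GCE φ) = QuotientGroup.mk 1
    rw [QuotientGroup.out_eq']; rfl
  map_mul' z z' := by
    rw [← map_mul]
    apply NN_congr
    change (QuotientGroup.mk ((z * z' : (gPi φ).ker) : GCE φ).out : GCE φ) =
      QuotientGroup.mk ((z : GCE φ).out * (z' : GCE φ).out)
    rw [QuotientGroup.mk_mul, QuotientGroup.out_eq', QuotientGroup.out_eq', QuotientGroup.out_eq']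
    rfl

lemma corZ_trZ (z : (gPi φ).ker) : corZ φ U (trZ φ U z) = z ^ (U.comap φ).index := by
  change corZ φ U (NN φ U _) = _
  rw [NN_apply, map_prod]
  simp only [corZ_yy]
  rw [Finset.prod_const, Finset.card_univ, Subgroup.index_eq_card, Nat.card_eq_fintype_card]
  congr 1
  apply Subtype.ext
  exact QuotientGroup.out_eq' _

lemma trZ_mem_commutator [(U.comap φ).FiniteIndex] (z : (gPi φ).ker) (hz : (z : GCE φ) ∈ commutator (GCE φ)) :
    (trZ φ U z : GCE (φ.subgroupComap U)) ∈ commutator (GCE (φ.subgroupComap U)) := by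
  -- choose a representative in the commutator subgroup
  obtain ⟨x, hx, hxz⟩ := exists_mem_commutator_of_surjective (QuotientGroup.mk' (gRel φ))
    (QuotientGroup.mk'_surjective _) _ hz
  have hxk : x ∈ φ.ker := by
    have h1 : gPi φ (QuotientGroup.mk x) = 1 := by
      change gPi φ (QuotientGroup.mk' (gRel φ) x) = 1
      rw [hxz]; exact z.2
    exact h1
  have h1 : trZ φ U z = NN φ U ⟨x, hxk⟩ := by
    apply NN_congr
    change (QuotientGroup.mk (z : GCE φ).out : GCE φ) = QuotientGroup.mk x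
    rw [QuotientGroup.out_eq']; exact hxz.symm
  rw [h1, ← Abelianization.ker_of, MonoidHom.mem_ker]
  let ϕ : U.comap φ →* Abelianization (GCE (φ.subgroupComap U)) :=
    Abelianization.of.comp (QuotientGroup.mk' _)
  have h2 : MonoidHom.transfer ϕ x = 1 := Abelianization.commutator_subset_ker _ hx
  rw [transfer_eq_prod_of_conj_mem ϕ x (conj_mem_comap φ U x hxk)] at h2
  rw [← h2, NN_apply]
  have h3 := map_prod (Abelianization.of.comp (gPi (φ.subgroupComap U)).ker.subtype)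
    (fun q : F ⧸ U.comap φ => yy φ U ⟨x, hxk⟩ q.out) Finset.univ
  exact h3

end transfer

end Cfsg.Agent.Lib.Helper21
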