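import Mathlib
import Cfsg.Prelude.Def_KGroupFacts
import Cfsg.Agent.Lib.Helper21.Hopf

set_option autoImplicit false

namespace Cfsg.Agent.Lib.Helper21

open Matrix

lemma exists_descend {G₁ G₂ G₃ : Type*} [Group G₁] [Group G₂] [Group G₃] (f : G₁ →* G₂)
    (hf : Function.Surjective f) (g : G₁ →* G₃) (hg : f.ker ≤ g.ker) :
    ∃ h : G₂ →* G₃, h.comp f = g :=
  ⟨f.liftOfSurjective hf ⟨g, hg⟩, MonoidHom.liftOfRightInverse_comp _ _ _ _⟩

/-- Extension of homomorphisms into a divisible abelian group. -/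
lemma exists_extend_hom_comm {B : Type*} [CommGroup B] {D : Type*} [CommGroup D]
    (hdiv : ∀ n : ℕ, n ≠ 0 → ∀ d : D, ∃ x : D, x ^ n = d)
    (H : Subgroup B) (l : H →* D) : ∃ μ : B →* D, ∀ s : H, μ s = l s := by
  have hdiv' : ∀ {n : ℤ}, n ≠ 0 → Function.Surjective (fun a : Additive D => n • a) := by
    intro n hn d
    obtain ⟨x, hx⟩ := hdiv n.natAbs (Int.natAbs_ne_zero.2 hn) (Additive.toMul d)
    rcases Int.natAbs_eq n with h | h
    · refine ⟨Additive.ofMul x, ?_⟩
      change Additive.ofMul (x ^ n) = d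
      rw [h, zpow_natCast, hx]; rfl
    · refine ⟨Additive.ofMul x⁻¹, ?_⟩
      change Additive.ofMul (x⁻¹ ^ n) = d
      rw [h, _root_.zpow_neg, zpow_natCast, inv_pow, inv_inv, hx]; rfl
  have hD : DivisibleBy (Additive D) ℤ := divisibleByOfSMulRightSurj _ _ hdiv'
  have hB : Module.Baer ℤ (Additive D) := Module.Baer.of_divisible _
  obtain ⟨h, hh⟩ := hB.extension_property_addMonoidHom (MonoidHom.toAdditive H.subtype)
    (fun a b hab => Subtype.ext hab) (MonoidHom.toAdditive l)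
  refine ⟨MonoidHom.toAdditive.symm h, ?_⟩
  intro s
  exact DFunLike.congr_fun hh (Additive.ofMul s)

lemma exists_extend_hom {E : Type*} [Group E] {D : Type*} [Group D] (hcomm : ∀ a b : D, a * b = b * a)
    (hdiv : ∀ n : ℕ, n ≠ 0 → ∀ d : D, ∃ x : D, x ^ n = d)
    (S : Subgroup E) (hS : S ⊓ commutator E = ⊥) (l : S →* D) :
    ∃ μ : E →* D, ∀ s : S, μ s = l s := by
  let _ : CommGroup D := { (inferInstance : Group D) with mul_comm := hcomm }
  let ι : S →* Abelianization E := Abelianization.of.comp S.subtype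
  have hι : Function.Injective ι := by
    rw [injective_iff_map_eq_one]
    intro s hs
    have h1 : (s : E) ∈ (Abelianization.of (G := E)).ker := hs
    rw [Abelianization.ker_of] at h1
    have h2 : (s : E) ∈ S ⊓ commutator E := ⟨s.2, h1⟩
    rw [hS, Subgroup.mem_bot] at h2
    exact Subtype.ext h2
  let eqv : S ≃* ι.range := MonoidHom.ofInjective hι
  obtain ⟨μ, hμ⟩ := exists_extend_hom_comm hdiv ι.range (l.comp eqv.symm.toMonoidHom)
  refine ⟨μ.comp Abelianization.of, ?_⟩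
  intro s
  have h1 := hμ (eqv s)
  have h2 : (l.comp eqv.symm.toMonoidHom) (eqv s) = l s := by simp
  rw [h2] at h1
  exact h1

lemma center_gl_div (n : ℕ) (k : ℕ) (hk : k ≠ 0) (d : Subgroup.center (GL (Fin n) ℂ)) :
    ∃ x : Subgroup.center (GL (Fin n) ℂ), x ^ k = d := by
  obtain ⟨d, hd⟩ := d
  have hd' := hd
  rw [Matrix.GeneralLinearGroup.center_eq_range_scalar] at hd'
  obtain ⟨c, rfl⟩ := hd'
  obtain ⟨w, hw⟩ := IsAlgClosed.exists_pow_nat_eq (c : ℂ) (Nat.pos_of_ne_zero hk)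
  have hw0 : w ≠ 0 := by
    rintro rfl
    rw [zero_pow hk] at hw
    exact c.ne_zero hw.symm
  refine ⟨⟨Matrix.GeneralLinearGroup.scalar (Fin n) (Units.mk0 w hw0), ?_⟩, ?_⟩
  · rw [Matrix.GeneralLinearGroup.center_eq_range_scalar]; exact ⟨_, rfl⟩
  · apply Subtype.ext
    change (Matrix.GeneralLinearGroup.scalar (Fin n) (Units.mk0 w hw0)) ^ k = _
    rw [← map_pow]
    congr 1
    ext
    simpa using hw

end Cfsg.Agent.Lib.Helper21
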