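import Mathlib
import Cfsg.Prelude.Def_KGroupFacts
import Cfsg.Agent.Lib.Helper21.CommMap

set_option autoImplicit false

namespace Cfsg.Agent.Lib.Helper21

universe u v

/-- A cyclic group whose order divides `n` is an image of `ZMod n`. -/
lemma exists_surjective_zmod_of_cyclic {K : Type*} [Group K] (hK : IsCyclic K) (n : ℕ)
    (hn : Nat.card K ∣ n) : ∃ π : Multiplicative (ZMod n) →* K, Function.Surjective π := by
  refine ⟨(zmodCyclicMulEquiv hK).toMonoidHom.comp
    (AddMonoidHom.toMultiplicative (ZMod.castHom hn (ZMod (Nat.card K))).toAddMonoidHom), ?_⟩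
  intro k
  obtain ⟨y, hy⟩ := (zmodCyclicMulEquiv hK).surjective k
  obtain ⟨z, hz⟩ := ZMod.castHom_surjective hn (Multiplicative.toAdd y)
  refine ⟨Multiplicative.ofAdd z, ?_⟩
  rw [← hy]
  change (zmodCyclicMulEquiv hK) (Multiplicative.ofAdd ((ZMod.castHom hn (ZMod (Nat.card K))) z)) = _
  rw [hz]
  rfl

/-- criterion for a cyclic multiplier of order `n` -/
lemma hasCyclicSchurMultiplier_of {D : Type u} [Group D] (n : ℕ)
    (hex : ∃ (Γ : Type u) (_ : Group Γ) (_ : Finite Γ) (σ : Γ →* D), Cfsg.IsStemExtension σ ∧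
      IsCyclic σ.ker ∧ Nat.card σ.ker = n)
    (hall : ∀ (Γ : Type u) [Group Γ] [Finite Γ] (σ : Γ →* D), Cfsg.IsStemExtension σ →
      IsCyclic σ.ker ∧ Nat.card σ.ker ∣ n) : Cfsg.HasCyclicSchurMultiplier D n := by
  refine ⟨?_, ?_⟩
  · obtain ⟨Γ, i1, i2, σ, hσ, hc, hn⟩ := hex
    refine ⟨Γ, i1, i2, σ, hσ, ⟨?_⟩⟩
    exact (hn ▸ (zmodCyclicMulEquiv hc)).symm
  · intro Γ _ _ σ hσ
    obtain ⟨hc, hn⟩ := hall Γ σ hσ
    exact exists_surjective_zmod_of_cyclic hc n hn

/-- criterion for a trivial multiplier -/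
lemma hasTrivialSchurMultiplier_of {D : Type u} [Group D] [Finite D]
    (hall : ∀ (Γ : Type u) [Group Γ] [Finite Γ] (σ : Γ →* D), Cfsg.IsStemExtension σ →
      Nat.card σ.ker = 1) : Cfsg.HasCyclicSchurMultiplier D 1 := by
  apply hasCyclicSchurMultiplier_of
  · refine ⟨D, inferInstance, inferInstance, MonoidHom.id D, ⟨Function.surjective_id, by simp, by simp⟩, ?_, ?_⟩
    · have h : (MonoidHom.id D).ker = ⊥ := by simp
      rw [h]; infer_instance
    · have h : (MonoidHom.id D).ker = ⊥ := by simp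
      rw [h]; simp
  · intro Γ _ _ σ hσ
    have h1 := hall Γ σ hσ
    refine ⟨?_, by rw [h1]⟩
    have : Subsingleton σ.ker := (Nat.card_eq_one_iff_unique.1 h1).1
    infer_instance

/-- `|H| = |ker σ| * |σ(H)|` when `ker σ ≤ H`. -/
lemma card_eq_card_ker_mul_card_map {Γ : Type*} {D : Type*} [Group Γ] [Group D] (σ : Γ →* D)
    (H : Subgroup Γ) (hK : σ.ker ≤ H) : Nat.card H = Nat.card σ.ker * Nat.card (H.map σ) := by
  have h1 : Nat.card (σ.comp H.subtype).ker * (σ.comp H.subtype).ker.index = Nat.card H :=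
    Subgroup.card_mul_index _
  rw [Subgroup.index_ker] at h1
  have h2 : (σ.comp H.subtype).range = H.map σ := by
    rw [MonoidHom.range_eq_map, ← Subgroup.map_map, ← MonoidHom.range_eq_map, Subgroup.range_subtype]
  have h3 : (σ.comp H.subtype).ker = σ.ker.subgroupOf H := rfl
  rw [h2, h3, Nat.card_congr (Subgroup.subgroupOfEquivOfLe hK).toEquiv] at h1
  exact h1.symm

/-- Order count for a stem extension of a group `D = A₀⟨x₀⟩` with `A₀` cyclic normal. -/
lemma stem_card_count {Γ : Type*} {D : Type*} [Group Γ] [Finite Γ] [Group D] (σ : Γ →* D)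
    (hσ : Cfsg.IsStemExtension σ) (A₀ : Subgroup D) [A₀.Normal] (hcyc : IsCyclic A₀)
    (x : Γ) (hgen : A₀ ⊔ Subgroup.zpowers (σ x) = ⊤) :
    Nat.card σ.ker * Nat.card (((A₀.comap σ) ⊓ Subgroup.centralizer ({x} : Set Γ)).map σ) =
      Nat.card (A₀ ⊓ Subgroup.centralizer ({σ x} : Set D) : Subgroup D) := by
  obtain ⟨hs, hc, hd⟩ := hσ
  have : Finite D := Finite.of_surjective σ hs
  set A := A₀.comap σ with hA
  have hKA : σ.ker ≤ A := by
    intro k hk
    rw [hA, Subgroup.mem_comap, MonoidHom.mem_ker.1 hk]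
    exact A₀.one_mem
  have hAab : ∀ a ∈ A, ∀ b ∈ A, a * b = b * a := by
    have hker : (σ.subgroupComap A₀).ker ≤ Subgroup.center A := by
      intro k hk
      have h1 : σ (k : Γ) = 1 := congrArg Subtype.val (MonoidHom.mem_ker.1 hk)
      have h2 : (k : Γ) ∈ Subgroup.center Γ := hc (MonoidHom.mem_ker.2 h1)
      rw [Subgroup.mem_center_iff]
      intro g
      exact Subtype.ext (Subgroup.mem_center_iff.1 h2 g)
    have hcomm := (σ.subgroupComap A₀).isMulCommutative_of_isCyclic_of_ker_le_center hker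
    intro a ha b hb
    exact congrArg Subtype.val (hcomm.is_comm.comm ⟨a, ha⟩ ⟨b, hb⟩)
  have hA₀ab : ∀ a ∈ A₀, ∀ b ∈ A₀, a * b = b * a := by
    intro a ha b hb
    exact congrArg Subtype.val ((IsCyclic.isMulCommutative (α := A₀)).is_comm.comm ⟨a, ha⟩ ⟨b, hb⟩)
  have hgenΓ : A ⊔ Subgroup.zpowers x = ⊤ := by
    rw [eq_top_iff]
    intro g _
    have hg : σ g ∈ A₀ ⊔ Subgroup.zpowers (σ x) := hgen ▸ Subgroup.mem_top _
    rw [Subgroup.mem_sup_of_normal_left] at hg
    obtain ⟨a, ha, _, ⟨k, rfl⟩, hak⟩ := hg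
    have h1 : g * (x ^ k)⁻¹ ∈ A := by
      rw [hA, Subgroup.mem_comap, map_mul, map_inv, map_zpow, ← hak]
      simpa using ha
    have h2 : g = (g * (x ^ k)⁻¹) * x ^ k := by group
    rw [h2]
    exact Subgroup.mul_mem_sup h1 (Subgroup.zpow_mem_zpowers x k)
  have e1 := card_commutator_mul_card_centralizer A hAab x hgenΓ
  have e2 := card_commutator_mul_card_centralizer A₀ hA₀ab (σ x) hgen
  have e3 : Nat.card (commutator Γ) = Nat.card σ.ker * Nat.card (commutator D) := by
    rw [card_eq_card_ker_mul_card_map σ _ hd, commutator_def, Subgroup.map_commutator,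
      ← MonoidHom.range_eq_map, MonoidHom.range_eq_top_of_surjective σ hs, commutator_def]
  have e4 : Nat.card A = Nat.card σ.ker * Nat.card A₀ := by
    rw [card_eq_card_ker_mul_card_map σ _ hKA, hA, Subgroup.map_comap_eq_self_of_surjective hs]
  have hKC : σ.ker ≤ A ⊓ Subgroup.centralizer ({x} : Set Γ) := by
    refine le_inf hKA ?_
    intro k hk
    rw [Subgroup.mem_centralizer_singleton_iff]
    exact (Subgroup.mem_center_iff.1 (hc hk) x).symm
  have e5 := card_eq_card_ker_mul_card_map σ _ hKC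
  rw [e3, e4, e5, ← e2] at e1
  have hpos : 0 < Nat.card σ.ker * Nat.card (commutator D) :=
    Nat.mul_pos Nat.card_pos Nat.card_pos
  apply Nat.eq_of_mul_eq_mul_left hpos
  rw [e1]
  ring

end Cfsg.Agent.Lib.Helper21
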