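import Mathlib

set_option autoImplicit false

namespace Cfsg.Agent.Lib.Helper21

open scoped Pointwise
open MulAction

lemma mul_pred_mod_div (p a : ℕ) (hp : 0 < p) (ha : 0 < a) :
    (p * a - 1) % p = p - 1 ∧ (p * a - 1) / p = a - 1 := by
  obtain ⟨b, rfl⟩ : ∃ b, a = b + 1 := ⟨a - 1, by omega⟩
  have h : p * (b + 1) - 1 = p * b + (p - 1) := by
    rw [mul_add, mul_one]; omega
  rw [h]
  constructor
  · rw [Nat.mul_add_mod]; exact Nat.mod_eq_of_lt (by omega)
  · rw [Nat.mul_add_div hp, Nat.div_eq_of_lt (by omega)]; simp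

lemma choose_pred_modEq_one (p : ℕ) [hp : Fact p.Prime] (β m' : ℕ) (hm' : 0 < m') :
    Nat.choose (p ^ β * m' - 1) (p ^ β - 1) ≡ 1 [MOD p] := by
  induction β with
  | zero => simp [Nat.ModEq]
  | succ β ih =>
    have hp0 := hp.out.pos
    have h1 := mul_pred_mod_div p (p ^ β * m') hp0 (by positivity)
    have h2 := mul_pred_mod_div p (p ^ β) hp0 (by positivity)
    have e1 : p ^ (β + 1) * m' = p * (p ^ β * m') := by ring
    have e2 : p ^ (β + 1) = p * p ^ β := by ring
    have h3 := Choose.choose_modEq_choose_mod_mul_choose_div_nat (p := p)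
      (n := p ^ (β + 1) * m' - 1) (k := p ^ (β + 1) - 1)
    rw [e1, h1.1, h1.2] at h3
    rw [e1]
    rw [e2] at h3 ⊢
    rw [h2.1, h2.2, Nat.choose_self, one_mul] at h3
    exact h3.trans ih

lemma choose_mul_eq (k m' : ℕ) (hk : 0 < k) (hm' : 0 < m') :
    Nat.choose (k * m') k = m' * Nat.choose (k * m' - 1) (k - 1) := by
  have h := Nat.add_one_mul_choose_eq (k * m' - 1) (k - 1)
  have e1 : (k * m' - 1) + 1 = k * m' := by
    have : 0 < k * m' := by positivity
    omega
  have e2 : (k - 1) + 1 = k := by omega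
  rw [e1, e2] at h
  apply Nat.eq_of_mul_eq_mul_right hk
  rw [← h]; ring

variable {G : Type*} [Group G]

lemma card_dvd_ncard_of_smul_subset [Finite G] (S : Subgroup G) (X : Set G)
    (h : ∀ s ∈ S, ∀ x ∈ X, s * x ∈ X) : Nat.card S ∣ X.ncard := by
  have h1 : X⁻¹ = (QuotientGroup.mk : G → G ⧸ S) ⁻¹' ((QuotientGroup.mk : G → G ⧸ S) '' X⁻¹) := by
    apply Set.Subset.antisymm (Set.subset_preimage_image _ _)
    rintro y ⟨x, hx, hxy⟩
    have h2 : x⁻¹ * y ∈ S := QuotientGroup.eq.1 hxy
    have h3 := h _ (S.inv_mem h2) _ (Set.mem_inv.1 hx)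
    rw [Set.mem_inv]
    convert h3 using 1
    group
  have h2 := QuotientGroup.card_preimage_mk S ((QuotientGroup.mk : G → G ⧸ S) '' X⁻¹)
  rw [← h1, Nat.card_coe_set_eq, Set.ncard_inv] at h2
  exact ⟨_, h2⟩

theorem card_subgroups_modEq_one [Finite G] (p β : ℕ) [hp : Fact p.Prime]
    (hdiv : p ^ β ∣ Nat.card G) :
    Nat.card {H : Subgroup G // Nat.card H = p ^ β} ≡ 1 [MOD p] := by
  classical
  obtain ⟨m', hm'⟩ := hdiv
  have hm'0 : 0 < m' := by
    rcases Nat.eq_zero_or_pos m' with h | h
    · rw [h, mul_zero] at hm'; exact absurd hm' Nat.card_pos.ne'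
    · exact h
  set k := p ^ β with hk
  have hk0 : 0 < k := pow_pos hp.out.pos _
  have := Fintype.ofFinite G
  have hcoe_smul : ∀ (g : G) (X : Set.powersetCard G k),
      ((g • X : Set.powersetCard G k) : Set G) = g • (X : Set G) := by
    intro g X
    rw [← Set.powersetCard.coe_coe, Set.powersetCard.coe_smul, Finset.coe_smul_finset,
      Set.powersetCard.coe_coe]
  have hst : ∀ X : Set.powersetCard G k, Nat.card (stabilizer G X) ∣ k := by
    intro X
    rw [Set.powersetCard.stabilizer_coe]
    conv_rhs => rw [← Set.powersetCard.ncard_eq X]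
    apply card_dvd_ncard_of_smul_subset
    intro s hs x hx
    have h1 : s • (X : Set G) = X := hs
    rw [← h1]; exact Set.smul_mem_smul_set hx
  have := Fintype.ofFinite (Quotient (orbitRel G (Set.powersetCard G k)))
  have hclass := MulAction.card_eq_sum_card_group_div_card_stabilizer G (Set.powersetCard G k)
  simp_rw [← Nat.card_eq_fintype_card] at hclass
  rw [Set.powersetCard.card, hm', choose_mul_eq k m' hk0 hm'0] at hclass
  let s : Quotient (orbitRel G (Set.powersetCard G k)) → ℕ :=
    fun ω => Nat.card (stabilizer G ω.out)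
  have hterm : ∀ ω, ∃ t, (k * m') / s ω = m' * ((if s ω = k then 1 else 0) + p * t) := by
    intro ω
    obtain ⟨j, hj, hsj⟩ := (Nat.dvd_prime_pow hp.out).1 (hst ω.out)
    have hsj' : s ω = p ^ j := hsj
    rw [hsj']
    rcases Nat.lt_or_ge j β with hlt | hge
    · refine ⟨p ^ (β - j - 1), ?_⟩
      have hne : p ^ j ≠ k := by
        rw [hk]; intro h
        exact hlt.ne (Nat.pow_right_injective hp.out.two_le h)
      rw [if_neg hne, zero_add]
      have e1 : k * m' = p ^ j * (m' * (p * p ^ (β - j - 1))) := by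
        have : k = p ^ j * (p * p ^ (β - j - 1)) := by
          rw [hk, ← pow_succ', ← pow_add]; congr 1; omega
        rw [this]; ring
      rw [e1, Nat.mul_div_cancel_left _ (pow_pos hp.out.pos j)]
    · have hjb : j = β := le_antisymm hj hge
      refine ⟨0, ?_⟩
      rw [hjb, if_pos hk.symm, ← hk, Nat.mul_div_cancel_left _ hk0]; simp
  choose t ht using hterm
  have hsum : m' * Nat.choose (k * m' - 1) (k - 1) =
      m' * ((∑ ω, if s ω = k then 1 else 0) + p * ∑ ω, t ω) := by
    rw [hclass, Finset.mul_sum (a := p), ← Finset.sum_add_distrib, Finset.mul_sum]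
    exact Finset.sum_congr rfl (fun ω _ => ht ω)
  have hsum' := Nat.eq_of_mul_eq_mul_left hm'0 hsum
  have hO : (∑ ω, if s ω = k then 1 else 0) ≡ 1 [MOD p] := by
    have h1 := choose_pred_modEq_one p β m' hm'0
    rw [← hk, hsum'] at h1
    have h2 : (∑ ω, if s ω = k then 1 else 0) + p * ∑ ω, t ω ≡ (∑ ω, if s ω = k then 1 else 0) [MOD p] := by
      simp [Nat.ModEq]
    exact h2.symm.trans h1
  have hcardO : (∑ ω, if s ω = k then 1 else 0) = Nat.card {ω // s ω = k} := by
    rw [Finset.sum_boole, Nat.card_eq_fintype_card, Fintype.card_subtype]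
    simp
  rw [hcardO] at hO
  -- the bijection
  have hs_orbit : ∀ X : Set.powersetCard G k,
      s (Quotient.mk'' X) = Nat.card (stabilizer G X) := by
    intro X
    have h1 : (Quotient.mk'' X : Quotient (orbitRel G (Set.powersetCard G k))).out ∈ orbit G X :=
      Quotient.exact' (Quotient.out_eq' (Quotient.mk'' X : Quotient (orbitRel G (Set.powersetCard G k))))
    obtain ⟨g, hg⟩ := h1
    change Nat.card (stabilizer G _) = _
    rw [← hg, MulAction.stabilizer_smul_eq_stabilizer_map_conj]
    exact Subgroup.card_map_of_injective (MulAut.conj g).injective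
  let XH : {H : Subgroup G // Nat.card H = k} → Set.powersetCard G k := fun H =>
    ⟨(H.1 : Set G).toFinset, by
      rw [Set.powersetCard.mem_iff, Set.toFinset_card, ← Nat.card_eq_fintype_card]; exact H.2⟩
  have hXH : ∀ H, ((XH H : Set.powersetCard G k) : Set G) = (H.1 : Set G) := by
    intro H
    rw [← Set.powersetCard.coe_coe]
    simp [XH]
  have hstXH : ∀ H, stabilizer G (XH H) = H.1 := by
    intro H
    rw [Set.powersetCard.stabilizer_coe, hXH]
    ext g
    rw [mem_stabilizer_iff]
    constructor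
    · intro h
      have h1 : g • (1 : G) ∈ g • (H.1 : Set G) := Set.smul_mem_smul_set H.1.one_mem
      rw [h] at h1
      simpa using h1
    · intro h
      exact smul_coe_set h
  have hbij : Nat.card {H : Subgroup G // Nat.card H = k} = Nat.card {ω // s ω = k} := by
    let e : {H : Subgroup G // Nat.card H = k} → {ω // s ω = k} := fun H =>
      ⟨Quotient.mk'' (XH H), by rw [hs_orbit, hstXH]; exact H.2⟩
    apply Nat.card_congr (Equiv.ofBijective e ⟨?_, ?_⟩)
    · intro H K hHK
      have h1 : (Quotient.mk'' (XH H) : Quotient (orbitRel G (Set.powersetCard G k))) =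
        Quotient.mk'' (XH K) := congrArg Subtype.val hHK
      obtain ⟨g, hg⟩ : XH H ∈ orbit G (XH K) := Quotient.exact' h1
      have h2 : g • (K.1 : Set G) = (H.1 : Set G) := by
        have hg' : g • XH K = XH H := hg
        rw [← hXH, ← hXH, ← hg', hcoe_smul]
      have h3 : (1 : G) ∈ g • (K.1 : Set G) := by rw [h2]; exact H.1.one_mem
      obtain ⟨x, hx, hgx⟩ := h3
      have hgK : g ∈ K.1 := by
        have : g = x⁻¹ := eq_inv_of_mul_eq_one_left hgx
        rw [this]; exact K.1.inv_mem hx
      rw [smul_coe_set hgK] at h2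
      exact Subtype.ext (SetLike.coe_injective h2.symm)
    · rintro ⟨ω, hω⟩
      set X := ω.out with hX
      have hXne : (X : Set G).Nonempty := by
        rw [Set.powersetCard.coe_nonempty_iff]; exact hk0
      obtain ⟨x, hx⟩ := hXne
      set S := stabilizer G X with hS
      have hScard : Nat.card S = k := hω
      -- X = S x
      have hsub : (fun a : G => a * x) '' (S : Set G) ⊆ (X : Set G) := by
        rintro _ ⟨a, ha, rfl⟩
        have h1 : a • (X : Set G) = X := by
          have : a ∈ stabilizer G (X : Set G) := by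
            rw [← Set.powersetCard.stabilizer_coe]; exact ha
          exact this
        rw [← h1]; exact Set.smul_mem_smul_set hx
      have heq : (fun a : G => a * x) '' (S : Set G) = (X : Set G) := by
        apply Set.eq_of_subset_of_ncard_le hsub
        rw [Set.ncard_image_of_injective _ (mul_left_injective x), Set.powersetCard.ncard_eq,
          ← Nat.card_coe_set_eq]
        exact hScard.ge
      let H : Subgroup G := S.map (MulAut.conj x⁻¹).toMonoidHom
      have hHcard : Nat.card H = k := by
        rw [← hScard]; exact Subgroup.card_map_of_injective (MulAut.conj x⁻¹).injective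
      refine ⟨⟨H, hHcard⟩, ?_⟩
      apply Subtype.ext
      change (Quotient.mk'' (XH ⟨H, hHcard⟩) : Quotient (orbitRel G (Set.powersetCard G k))) = ω
      rw [← Quotient.out_eq' ω]
      apply Quotient.sound'
      refine ⟨x⁻¹, ?_⟩
      apply SetLike.coe_injective
      rw [hXH]
      change ((x⁻¹ • X : Set.powersetCard G k) : Set G) = (H : Set G)
      rw [hcoe_smul, ← heq]
      ext y
      constructor
      · rintro ⟨_, ⟨a, ha, rfl⟩, rfl⟩
        exact ⟨a, ha, by simp [mul_assoc]⟩
      · rintro ⟨a, ha, rfl⟩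
        exact ⟨a * x, ⟨a, ha, rfl⟩, by simp [mul_assoc]⟩
  rw [hbij]
  exact hO

end Cfsg.Agent.Lib.Helper21
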